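import Cfsg.Agent.H87.OC.DDat
import Cfsg.Agent.S1082
import Cfsg.Agent.Characters.Linear

/-!
# S4891 (R11): `POmega8+(q)` in characteristic 3 (helper87)

* `isIrr` : `c ∘ μ` induces an irreducible character;
* `ocRow_dfour`, `ocRow_pomega`.
-/

set_option autoImplicit false

open scoped ComplexConjugate
open Cfsg

namespace Cfsg.Agent.H87.OC

open Cfsg.Lie
open Cfsg.Agent.ChevalleyStructure.D4Comm Cfsg.Agent.ChevalleyStructure.D4NCheck
open Cfsg.Agent.ChevalleyStructure.D4NConj Cfsg.Agent.ChevalleyStructure.D4RGD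
open Cfsg.Agent.ChevalleyStructure Cfsg.Agent.H993.OC Cfsg.Agent.ChevalleyStructure.SparseHDiag
open Cfsg.Agent.H53.HC Cfsg.Agent.Characters Cfsg.Agent.OddOrderCharacters.Clifford

theorem mul_conj_eq_one {z : ℂˣ} {n : ℕ} (hn : n ≠ 0) (h : z ^ n = 1) : (z : ℂ) * conj (z : ℂ) = 1 := by
  have h1 : ‖(z : ℂ)‖ = 1 := Complex.norm_eq_one_of_pow_eq_one (n := n) (by
    rw [← Units.val_pow_eq_pow_val, h, Units.val_one]) hn
  rw [Complex.mul_conj, Complex.normSq_eq_norm_sq, h1]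
  simp

/-- a sum of two different linear characters -/
theorem sum_eq_zero {L : Type*} [Group L] [Fintype L] (f g : L →* ℂˣ) {l₀ : L} (h : f l₀ ≠ g l₀) :
    ∑ l : L, (f l : ℂ) * conj (g l : ℂ) = 0 := by
  classical
  set s : ℂ := ∑ l : L, (f l : ℂ) * conj (g l : ℂ) with hs
  have h1 : s = (f l₀ : ℂ) * conj (g l₀ : ℂ) * s := by
    rw [hs, Finset.mul_sum]
    refine (Fintype.sum_equiv (Equiv.mulLeft l₀) _ _ fun l => ?_).symm
    rw [Equiv.coe_mulLeft, map_mul, map_mul, Units.val_mul, Units.val_mul, map_mul]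
    ring
  have h2 : (g l₀ : ℂ) * conj (g l₀ : ℂ) = 1 := mul_conj_eq_one (n := Nat.card L) Nat.card_pos.ne' (by
    rw [← map_pow, pow_card_eq_one', map_one])
  by_contra hne
  have h3 : (f l₀ : ℂ) * conj (g l₀ : ℂ) = 1 := by
    have : (1 - (f l₀ : ℂ) * conj (g l₀ : ℂ)) * s = 0 := by linear_combination h1
    rcases mul_eq_zero.1 this with h4 | h4
    · linear_combination -h4
    · exact absurd h4 hne
  apply h
  apply Units.ext
  have h4 : conj (g l₀ : ℂ) ≠ 0 := by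
    intro h5
    rw [h5, mul_zero] at h2
    exact zero_ne_one h2
  exact mul_right_cancel₀ h4 (h3.trans h2.symm)

variable {K : Type*} [Field K] [Fintype K] {p : ℕ} [hp : Fact p.Prime] [CharP K p]

instance : Finite (SG K) := by
  have : Finite (GL chevD4.Idx K) := inferInstance
  infer_instance

theorem nG_one_top : rfl' 1 23 = 22 := by decide +kernel

omit [Fintype K] in
variable (K) in
theorem PS_ne_top : PS K ≠ ⊤ := by
  intro h
  have h1 : (⟨nG K 1, N_le_G K (nR_one_mem (sp_lt (by norm_num)))⟩ : SG K) ∈ PS K := by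
    rw [h]
    exact Subgroup.mem_top _
  rcases eta_cases (i := 1) (s := 23) (by norm_num) (by norm_num) with he | he
  · refine not_mem_PS (r := 22) (by norm_num) (by norm_num) (v := 1) (fun t => ?_) h1
    change nG K 1 * xG 23 t * (nG K 1)⁻¹ = _
    rw [nG_conj (by norm_num) (by norm_num), nG_one_top, he]
    simp
  · refine not_mem_PS (r := 22) (by norm_num) (by norm_num) (v := -1) (fun t => ?_) h1
    change nG K 1 * xG 23 t * (nG K 1)⁻¹ = _
    rw [nG_conj (by norm_num) (by norm_num), nG_one_top, he]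
    simp

omit [Fintype K] in
theorem conj_swap {n : GL chevD4.Idx K} {r : ℕ} (hr : r < 24) {v : Kˣ} (hv : ∀ t : K, n * xG 23 t * n⁻¹ = xG r (v * t))
    {m : ℤ} (hk : cartanRS chevD4 23 r = m) (s : Kˣ) :
    (n⁻¹ * hR 23 (s : K) * n) * xG 23 1 * (n⁻¹ * hR 23 (s : K) * n)⁻¹ = xG 23 ((s ^ m : Kˣ) : K) := by
  have e : (n⁻¹ * hR 23 (s : K) * n) * xG 23 1 * (n⁻¹ * hR 23 (s : K) * n)⁻¹ =
      n⁻¹ * (hR 23 (s : K) * (n * xG 23 1 * n⁻¹) * (hR 23 (s : K))⁻¹) * n := by group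
  rw [e, hv, D4HConj.hR_conj (by norm_num) hr s.ne_zero, hk]
  have e2 : n * xG 23 ((s : K) ^ m) * n⁻¹ = xG r ((s : K) ^ m * ((v : K) * 1)) := by
    rw [hv]
    congr 1
    ring
  rw [← e2, Units.val_zpow_eq_zpow_val]
  group

variable (p) in
/-- **irreducibility** -/
theorem isIrr [Fintype (SG K)] (c : Kˣ →* ℂˣ) (hc : ∀ k : ℕ, 1 ≤ k → k ≤ 4 → ∃ s, c s ^ k ≠ 1) :
    IsIrrCharacter (SG K) (indFun (dat K p).P (fun g => ((dat K p).lam c g : ℂ))) := by
  classical
  refine isIrr_indFun_rep (dat K p).P (Linear.isIrrCharacter_hom _) fun x hx => ?_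
  obtain ⟨b, n, b', hb, hn, hb', rfl, r, hr, v, hv⟩ := dicho x
  have hbP : b ∈ PS K := mem_PS_of_B hb
  have hbP' : b' ∈ PS K := mem_PS_of_B hb'
  have hne : r ≠ 23 := by
    rintro rfl
    apply hx
    have hnP : n ∈ PS K := mem_PS_of (v := v) fun a => Subtype.ext (hv a)
    exact mul_mem (mul_mem hbP hnP) hbP'
  let L : Subgroup (SG K) := (chevD4.diagonalSubgroup K).subgroupOf (chevD4.group K)
  have hL : L ≤ PS K := fun l hl => mem_PS_of_B (H_le_B K hl)
  have hL' : ∀ l ∈ L, n⁻¹ * l * n ∈ PS K := by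
    intro l hl
    refine mem_PS_of_B (H_le_B K ?_)
    have h1 := conj_mem_diagonal (inv_mem hn) (h := (l : GL chevD4.Idx K)) hl
    rwa [inv_inv] at h1
  refine ⟨b, hbP, b', hbP', n, rfl, L, hL, hL', ?_⟩
  intro _
  -- the two linear characters of the torus
  let f : L →* ℂˣ := ((dat K p).lam c).comp (Subgroup.inclusion hL)
  let j : L →* PS K := MonoidHom.mk' (fun l => ⟨n⁻¹ * (l : SG K) * n, hL' l l.2⟩) fun a b => by
    apply Subtype.ext
    change n⁻¹ * ((a : SG K) * (b : SG K)) * n = (n⁻¹ * (a : SG K) * n) * (n⁻¹ * (b : SG K) * n)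
    group
  let g : L →* ℂˣ := ((dat K p).lam c).comp j
  -- its values
  obtain ⟨k, hk1, hk4, hk⟩ : ∃ k : ℕ, 1 ≤ k ∧ k ≤ 4 ∧ cartanRS chevD4 23 r = 2 - (k : ℤ) := by
    have h := cartan_r r (List.mem_range.2 hr) hne
    simp only [List.mem_cons, List.not_mem_nil, or_false] at h
    rcases h with h | h | h | h
    · exact ⟨1, by norm_num, by norm_num, by rw [h]; norm_num⟩
    · exact ⟨2, by norm_num, by norm_num, by rw [h]; norm_num⟩
    · exact ⟨3, by norm_num, by norm_num, by rw [h]; norm_num⟩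
    · exact ⟨4, by norm_num, by norm_num, by rw [h]; norm_num⟩
  obtain ⟨s, hs⟩ := hc k hk1 hk4
  let l₀ : L := ⟨⟨hR 23 (s : K), hR_mem_group 23 _⟩, hR_mem (by norm_num) s.ne_zero⟩
  have hf : f l₀ = c (s ^ 2) := by
    change c (mu (Subgroup.inclusion hL l₀)) = _
    congr 1
    refine mu_eq (Subtype.ext ?_)
    change hR 23 (s : K) * xG 23 1 * (hR 23 (s : K))⁻¹ = xG 23 _
    rw [D4HConj.hR_conj (by norm_num) (by norm_num) s.ne_zero, cartan_23]
    congr 1
    push_cast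
    rw [mul_one]
    exact zpow_ofNat _ _
  have hg : g l₀ = c (s ^ (2 - (k : ℤ))) := by
    change c (mu (j l₀)) = _
    congr 1
    refine mu_eq (Subtype.ext ?_)
    exact conj_swap hr hv hk s
  have hfg : f l₀ ≠ g l₀ := by
    rw [hf, hg]
    intro h
    apply hs
    have h1 : c (s ^ 2) = c (s ^ (2 - (k : ℤ))) * c s ^ k := by
      rw [← map_pow, ← map_mul]
      congr 1
      rw [← zpow_natCast s k, ← zpow_add, sub_add_cancel]
      exact (zpow_ofNat _ _).symm
    rw [h] at h1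
    exact (mul_eq_left.1 h1.symm)
  exact sum_eq_zero f g hfg

variable (K) in
/-- **the row for `D₄`** -/
theorem ocRow_dfour {f₀ k : ℕ} (hf : ¬ p ∣ f₀) (hK : Nat.card K = p ^ (f₀ * p ^ k)) (h4 : 4 < p ^ f₀ - 1) :
    OCRow p (SG K) := by
  classical
  let _ : Fintype (SG K) := Fintype.ofFinite _
  obtain ⟨c, hc1, -, hc3⟩ := exists_char (K := K) hf hK (dvd_refl (p ^ f₀ - 1))
  refine RootDat.ocRow (D := dat K p) c hc1 (isIrr p c fun k hk1 hk4 => ?_) (PS_ne_top K)
  by_contra hcon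
  push Not at hcon
  have := Nat.le_of_dvd (by omega) (hc3 k hcon)
  omega

variable (K) in
/-- **the row for `PΩ₈⁺(q)`** -/
theorem ocRow_pomega {f₀ k : ℕ} (hf : ¬ p ∣ f₀) (hK : Nat.card K = p ^ (f₀ * p ^ k)) (h4 : 4 < p ^ f₀ - 1) :
    OCRow p (POmega K (quadFormPlus 4 K)) := by
  obtain ⟨e⟩ := Cfsg.Agent.S1082.result (F := K)
  exact OCRow.of_equiv e.symm (ocRow_dfour K hf hK h4)

end Cfsg.Agent.H87.OC
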